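import Cfsg.Agent.Lib.Helper43.PF.Defs
import Cfsg.Agent.Lib.Helper14.D4Iso
import Cfsg.Agent.Lib.Helper36.ChevOut2

/-! The explicit isomorphism `D₄(F) ≃* PΩ₈⁺(F)` and the action of the diagonal similarities
(for N4 of the S2715 farm). -/

set_option autoImplicit false
set_option linter.unusedSectionVars false

namespace Cfsg.Agent.Lib.Helper62.PF

open Matrix QuadraticMap Cfsg Cfsg.Lie Cfsg.Agent.Lib.Helper44 Cfsg.Agent.Lib.Helper14
  Cfsg.Agent.Lib.Helper18 Cfsg.Agent.Lib.Helper36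

universe u

variable {F : Type u} [Field F]

local notation "I8" => (Fin 4 ⊕ Fin 4)
local notation "M8" => Matrix (Fin 4 ⊕ Fin 4) (Fin 4 ⊕ Fin 4) F
local notation "Q8" => plusQF 4 F

theorem adD_mem (ω : Cfsg.Omega F ⇑Q8) : adD ω.1 ∈ chevD4.group F := by
  have h1 := (mem_Omega_iff Q8 ω.1).mp ω.2
  rw [commutator_O8_eq] at h1
  have h2 := adO8_E8_le h1
  rw [Subgroup.mem_comap] at h2
  simpa [adO8] using h2

/-- the adjoint map `Ω₈⁺(F) → D₄(F)` -/
noncomputable def piD : Cfsg.Omega F ⇑Q8 →* ↥(chevD4.group F) :=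
  (adD.comp (Cfsg.Omega F ⇑Q8).subtype).codRestrict _ adD_mem

theorem piD_surjective : Function.Surjective (piD (F := F)) := by
  rintro ⟨y, hy⟩
  rw [← adO8_map_E8] at hy
  obtain ⟨x, hx, rfl⟩ := hy
  refine ⟨⟨(isoEquiv Q8).symm x, ?_⟩, ?_⟩
  · rw [mem_Omega_iff, commutator_O8_eq]
    simpa using hx
  · apply Subtype.ext
    rfl

theorem piD_ker : (piD (F := F)).ker = Subgroup.center (Cfsg.Omega F ⇑Q8) := by
  apply le_antisymm
  · intro ω hω
    rw [MonoidHom.mem_ker] at hω
    have h1 : adG8 ω.1 = 1 := congrArg Subtype.val hω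
    rw [Subgroup.mem_center_iff]
    intro x
    apply Subtype.ext
    exact ker_comm ω.1 h1 x.1
  · intro z hz
    rw [MonoidHom.mem_ker]
    have h1 : piD z ∈ Subgroup.center ↥(chevD4.group F) := by
      rw [Subgroup.mem_center_iff]
      intro y
      obtain ⟨x, rfl⟩ := piD_surjective y
      rw [← map_mul, ← map_mul, (Subgroup.mem_center_iff.1 hz) x]
    rw [center_chevD4] at h1
    exact (Subgroup.mem_bot).1 h1

/-- the explicit isomorphism -/
noncomputable def eD : ↥(chevD4.group F) ≃* Cfsg.POmega F ⇑Q8 :=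
  (QuotientGroup.quotientKerEquivOfSurjective piD piD_surjective).symm.trans
    (QuotientGroup.quotientMulEquivOfEq piD_ker)

theorem eD_piD (ω : Cfsg.Omega F ⇑Q8) : eD (piD ω) = QuotientGroup.mk ω := by
  unfold eD
  rw [MulEquiv.trans_apply]
  have h1 : (QuotientGroup.quotientKerEquivOfSurjective piD piD_surjective).symm (piD ω)
      = (QuotientGroup.mk ω : Cfsg.Omega F ⇑Q8 ⧸ (piD (F := F)).ker) := by
    rw [MulEquiv.symm_apply_eq]
    rfl
  rw [h1]
  rfl

theorem exists_omega_root (r : Fin 24) (c : F) :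
    ∃ ω : Cfsg.Omega F ⇑Q8, isoMat ω.1 = rootM (paD r) (pbD r) c := by
  have hx : eiO (e8 (paD r)) (Pi.single (pbD r) c) (Q_e8 _) (polar_root r c) ∈
      (E8 : Subgroup (OQ (plusQF 4 F))) := Subgroup.subset_closure ⟨_, _, _, _, rfl⟩
  refine ⟨⟨(isoEquiv Q8).symm
    (eiO (e8 (paD r)) (Pi.single (pbD r) c) (Q_e8 _) (polar_root r c)), ?_⟩,
    isoMat_of_eiO _ _ _ _ (polar_root r _) (by simp)⟩
  rw [mem_Omega_iff, commutator_O8_eq]
  simpa using hx

theorem piD_root (hB : Base chevD4 F) (r : Fin 24) (t : F) (ω : Cfsg.Omega F ⇑Q8)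
    (hω : isoMat ω.1 = rootM (paD r) (pbD r) ((etD r : F) * t)) :
    piD ω = xG hB r t := by
  apply Subtype.ext
  apply hB.eq_xg
  have h1 := adD_of_rootM ω.1 r t hω
  have h2 : chevD4.x F (r : ℕ) t = chevD4.xMat F r t := by
    unfold ChevalleyDatum.x
    exact dif_pos r.2
  rw [h2]
  exact h1

theorem rootM_diag (dd : I8 → F) (mu : F) (hmu : mu ≠ 0) (hdd : ∀ a, dd a * dd a.swap = mu)
    (a b : I8) (c : F) :
    rootM a b (dd a * dd b / mu * c) * Matrix.diagonal dd = Matrix.diagonal dd * rootM a b c := by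
  have h1 : ∀ (p q : I8) (x : F) (i j : I8), dd p = x * dd q →
      x * (Matrix.single p q (1 : F) i j * dd j) = dd i * Matrix.single p q (1 : F) i j := by
    intro p q x i j h
    rw [Matrix.single_apply]
    split_ifs with hc
    · obtain ⟨rfl, rfl⟩ := hc
      rw [h]; ring
    · ring
  have ha : dd a = dd a * dd b / mu * dd b.swap := by
    have := hdd b
    field_simp
    rw [mul_assoc, this]
  have hb : dd b = dd a * dd b / mu * dd a.swap := by
    have := hdd a
    field_simp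
    rw [mul_assoc, this]
  ext i j
  rw [Matrix.mul_diagonal, Matrix.diagonal_mul]
  unfold rootM
  simp only [Matrix.add_apply, Matrix.smul_apply, Matrix.sub_apply, smul_eq_mul]
  have e1 := h1 a b.swap _ i j ha
  have e2 := h1 b a.swap _ i j hb
  have e3 : (1 : M8) i j * dd j = dd i * (1 : M8) i j := by
    rw [Matrix.one_apply]
    split_ifs with h
    · rw [h]; ring
    · ring
  linear_combination e3 + c * e1 - c * e2

/-- the key formula -/
theorem conj_root (hB : Base chevD4 F) (d : ↥(Cfsg.Geo.quadSimilarityGroup ⇑Q8)) (dd : I8 → F)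
    (mu : F) (hmu : mu ≠ 0) (hdd : ∀ a, dd a * dd a.swap = mu)
    (hd : ((d : GL I8 F) : M8) = Matrix.diagonal dd) (r : Fin 24) (t : F) :
    conjPOmega ⇑Q8 d (eD (xG hB r t))
      = eD (xG hB r (dd (paD r) * dd (pbD r) / mu * t)) := by
  obtain ⟨ω, hω⟩ := exists_omega_root (F := F) r ((etD r : F) * t)
  obtain ⟨ω', hω'⟩ := exists_omega_root (F := F) r
    ((etD r : F) * (dd (paD r) * dd (pbD r) / mu * t))
  rw [← piD_root hB r t ω hω, ← piD_root hB r _ ω' hω', eD_piD, eD_piD]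
  apply conjPOmega_apply_mk
  rw [eq_mul_inv_iff_mul_eq]
  apply Units.ext
  rw [Units.val_mul, Units.val_mul, hd]
  have h1 : ((ω'.1 : GL I8 F) : M8) = rootM (paD r) (pbD r)
      (dd (paD r) * dd (pbD r) / mu * ((etD r : F) * t)) := by
    refine hω'.trans ?_
    congr 1
    ring
  have h2 : ((ω.1 : GL I8 F) : M8) = rootM (paD r) (pbD r) ((etD r : F) * t) := hω
  rw [h1, h2]
  exact rootM_diag dd mu hmu hdd _ _ _

end Cfsg.Agent.Lib.Helper62.PF
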