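import Cfsg.Agent.Lib.Helper62.PF.Key
import Cfsg.Agent.Lib.Helper43.PF.N4c
import Cfsg.Agent.S2159

/-! [N4] of the S2715 farm: `Inndiag(PΩ₈⁺(q))` is normal in the automorphism group. -/

set_option autoImplicit false
set_option linter.unusedSectionVars false

namespace Cfsg.Agent.Lib.Helper62.PF

open Matrix QuadraticMap Cfsg Cfsg.Lie Cfsg.Agent.Lib.Helper44 Cfsg.Agent.Lib.Helper14
  Cfsg.Agent.Lib.Helper18 Cfsg.Agent.Lib.Helper36 Cfsg.Agent.Lib.Helper43.PF
  Cfsg.Agent.Lib.Helper43.PO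

universe u

variable {F : Type u} [Field F]

local notation "I8" => (Fin 4 ⊕ Fin 4)
local notation "M8" => Matrix (Fin 4 ⊕ Fin 4) (Fin 4 ⊕ Fin 4) F
local notation "Q8" => plusQF 4 F

theorem hD4 : chevD4 ∈ [chevG2, chevB2, chevD4, chevF4, chevE6, chevE7, chevE8] := by simp

/-- the fundamental roots -/
def sD : Fin 4 → Fin 24 := ![18, 14, 13, 12]

/-- their negatives -/
def nD : Fin 4 → Fin 24 := ![5, 9, 10, 11]

theorem simple_eq : ∀ j : Fin 4, chevD4.simple j = (sD j : ℕ) := by decide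

theorem neg_simple_eq : ∀ j : Fin 4, chevD4.neg (chevD4.simple j) = (nD j : ℕ) := by decide

theorem neg_pair : ∀ j : Fin 4,
    (paD (nD j) = (pbD (sD j)).swap ∧ pbD (nD j) = (paD (sD j)).swap) ∨
    (paD (nD j) = (paD (sD j)).swap ∧ pbD (nD j) = (pbD (sD j)).swap) := by decide

/-- a diagonal similarity induces a diagonal automorphism -/
theorem conj_eq_diag (d : ↥(Cfsg.Geo.quadSimilarityGroup ⇑Q8)) (dd : I8 → Fˣ) (μ : Fˣ)
    (hdd : ∀ a, dd a * dd a.swap = μ)
    (hd : ((d : GL I8 F) : M8) = Matrix.diagonal (fun a => (dd a : F)))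
    (c : Fin chevD4.rank → Fˣ)
    (hc : ∀ j : Fin 4, c j = dd (paD (sD j)) * dd (pbD (sD j)) * μ⁻¹) :
    conjPOmega ⇑Q8 d = MulAut.congr eD (diagOf hD4 c) := by
  have hB := base_of_mem F hD4
  have hT := (tabs2_of_mem hD4).tab
  have hdd' : ∀ a, (fun a => (dd a : F)) a * (fun a => (dd a : F)) a.swap = (μ : F) := by
    intro a
    have := congrArg Units.val (hdd a)
    simpa using this
  have key : diagOf hD4 c = (MulAut.congr eD).symm (conjPOmega ⇑Q8 d) := by
    apply aut_ext hB hT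
    intro i t
    have hsym : ∀ x, (MulAut.congr eD).symm (conjPOmega ⇑Q8 d) x
        = eD.symm (conjPOmega ⇑Q8 d (eD x)) := fun x => rfl
    constructor
    · rw [diagOf_pos hD4 hB, hsym, simple_eq i,
        conj_root hB d _ (μ : F) μ.ne_zero hdd' hd (sD i) t, MulEquiv.symm_apply_apply, hc i]
      congr 1
      simp only [Units.val_mul, Units.val_inv_eq_inv_val, div_eq_mul_inv]
    · rw [diagOf_neg hD4 hB, hsym, neg_simple_eq i,
        conj_root hB d _ (μ : F) μ.ne_zero hdd' hd (nD i) t, MulEquiv.symm_apply_apply, hc i]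
      congr 1
      have hA := hdd' (paD (sD i))
      have hBB := hdd' (pbD (sD i))
      simp only at hA hBB
      have hμ : (μ : F) ≠ 0 := μ.ne_zero
      have h1 : (dd (paD (sD i)) : F) ≠ 0 := (dd _).ne_zero
      have h2 : (dd (pbD (sD i)) : F) ≠ 0 := (dd _).ne_zero
      congr 1
      simp only [Units.val_mul, Units.val_inv_eq_inv_val]
      rcases neg_pair i with ⟨e1, e2⟩ | ⟨e1, e2⟩
      · rw [e1, e2]
        field_simp
        linear_combination (-(dd (pbD (sD i)) : F) * (dd (pbD (sD i)).swap : F)) * hA - (μ : F) * hBB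
      · rw [e1, e2]
        field_simp
        linear_combination (-(dd (pbD (sD i)) : F) * (dd (pbD (sD i)).swap : F)) * hA - (μ : F) * hBB
  rw [key, MulEquiv.apply_symm_apply]

/-- every diagonal automorphism comes from a diagonal similarity -/
theorem exists_dd (c : Fin 4 → Fˣ) : ∃ (dd : I8 → Fˣ) (μ : Fˣ), (∀ a, dd a * dd a.swap = μ) ∧
    ∀ j : Fin 4, c j = dd (paD (sD j)) * dd (pbD (sD j)) * μ⁻¹ := by
  refine ⟨Sum.elim ![c 0 * c 1 * c 2, c 1 * c 2, c 2, 1]
    ![c 2 * (c 3)⁻¹ * (c 0 * c 1 * c 2)⁻¹, c 2 * (c 3)⁻¹ * (c 1 * c 2)⁻¹, c 2 * (c 3)⁻¹ * (c 2)⁻¹,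
      c 2 * (c 3)⁻¹], c 2 * (c 3)⁻¹, ?_, ?_⟩
  · rintro (i | i) <;> fin_cases i <;> apply Units.ext <;>
      simp <;> field_simp
  · intro j
    fin_cases j <;> apply Units.ext <;> simp [sD, paD, pbD] <;> field_simp

theorem normal_DPl_four [Fintype F] (h2 : (2 : F) ≠ 0) : (DPl F 4 (by norm_num)).Normal := by
  set Lam := MulAut.congr (eD (F := F)) with hLam
  set Dc : Subgroup (MulAut ↥(chevD4.group F)) :=
    Subgroup.closure {φ : MulAut ↥(chevD4.group F) | chevD4.IsDiagonalAut φ} with hDc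
  set Dbar := Dc.map (QuotientGroup.mk' (Cfsg.Inn ↥(chevD4.group F))) with hDbar
  have hN : Dbar.Normal := (Cfsg.Agent.S2159.result chevD4 hD4 Dbar _ rfl rfl).1
  set IC := Dbar.comap (QuotientGroup.mk' (Cfsg.Inn ↥(chevD4.group F))) with hIC
  have hICn : IC.Normal := hN.comap _
  have hDcIC : Dc ≤ IC := Subgroup.le_comap_map _ _
  have hInnIC : Cfsg.Inn ↥(chevD4.group F) ≤ IC := by
    intro x hx
    rw [hIC, Subgroup.mem_comap]
    have : QuotientGroup.mk' (Cfsg.Inn ↥(chevD4.group F)) x = 1 :=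
      (QuotientGroup.eq_one_iff x).2 hx
    rw [this]
    exact one_mem _
  have hInn := inn_map_congr (eD (F := F))
  have hEq : DPl F 4 (by norm_num) = IC.map Lam.toMonoidHom := by
    apply le_antisymm
    · rintro _ ⟨g, hg, rfl⟩
      obtain ⟨d, dd, μ, hd, hdd, hmem⟩ := exists_diag_mul_mem h2 4 (by norm_num) g hg
      obtain ⟨a, ha, b, hb, hab⟩ := Subgroup.mem_sup_of_normal_right.1 hmem
      have h1 : conjPOmega ⇑Q8 g * conjPOmega ⇑Q8 d = conjPOmega ⇑Q8 a := by
        rw [← map_mul, ← hab, map_mul, MonoidHom.mem_ker.1 hb, mul_one]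
      have h3 : conjPOmega ⇑Q8 a ∈ IC.map Lam.toMonoidHom := by
        have : conjPOmega ⇑Q8 a ∈ Cfsg.Inn (Cfsg.POmega F ⇑Q8) := by
          rw [inn_eq']
          exact ⟨a, ha, rfl⟩
        rw [← hInn] at this
        exact Subgroup.map_mono hInnIC this
      have h4 : conjPOmega ⇑Q8 d ∈ IC.map Lam.toMonoidHom := by
        rw [conj_eq_diag d dd μ hdd hd _ (fun j => rfl)]
        exact ⟨_, hDcIC (Subgroup.subset_closure (diagOf_isDiagonalAut hD4 _)), rfl⟩
      have h5 : conjPOmega ⇑Q8 g = conjPOmega ⇑Q8 a * (conjPOmega ⇑Q8 d)⁻¹ := by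
        rw [← h1, mul_inv_cancel_right]
      show conjPOmega ⇑Q8 g ∈ _
      rw [h5]
      exact mul_mem h3 (inv_mem h4)
    · rw [Subgroup.map_le_iff_le_comap]
      intro φ hφ
      rw [hIC, Subgroup.mem_comap, hDbar] at hφ
      obtain ⟨ψ, hψ, hψφ⟩ := hφ
      have h1 : ψ⁻¹ * φ ∈ Cfsg.Inn ↥(chevD4.group F) := QuotientGroup.eq.1 hψφ
      have h2' : Dc ≤ (DPl F 4 (by norm_num)).comap Lam.toMonoidHom := by
        rw [hDc, Subgroup.closure_le]
        intro χ hχ
        obtain ⟨c, rfl⟩ := (isDiagonalAut_iff hD4 χ).1 hχ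
        obtain ⟨dd, μ, hdd, hc⟩ := exists_dd (F := F) c
        obtain ⟨d, hdS, hd⟩ := exists_diag_simil h2 4 (by norm_num) dd μ hdd
        rw [SetLike.mem_coe, Subgroup.mem_comap]
        show Lam (diagOf hD4 c) ∈ _
        rw [hLam, ← conj_eq_diag d dd μ hdd hd c hc]
        exact ⟨d, hdS, rfl⟩
      have h3 : Lam.toMonoidHom (ψ⁻¹ * φ) ∈ DPl F 4 (by norm_num) := by
        apply inn_le_DPl
        rw [← hInn]
        exact ⟨_, h1, rfl⟩
      have h4 : φ = ψ * (ψ⁻¹ * φ) := by group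
      rw [Subgroup.mem_comap, h4, map_mul]
      exact mul_mem (h2' hψ) h3
  rw [hEq]
  exact hICn.map _ Lam.surjective

end Cfsg.Agent.Lib.Helper62.PF
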